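import Cfsg.Agent.SZ.ZD_b
import Cfsg.Agent.SZ.KG_f
import Cfsg.Agent.SZ.Wiel
import Cfsg.Agent.SZ.SUZ_fin

set_option autoImplicit false
set_option linter.unusedSectionVars false

/-! T2, step 5: the regular normal subgroup of the point stabiliser. -/

namespace CfsgSZ

open Subgroup CfsgH5 CfsgH6 CfsgFT

universe u

variable {G : Type u} [Group G] [Finite G] {V V' Q : Subgroup G} {g x : G}
  {Ω : Type u} [MulAction G Ω] {α β γ : Ω} {P : PS G Ω}

theorem IsoB.isoSuzuki {q : ℕ} (h : IsoB G q) : Cfsg.Lie.IsoSuzuki G := by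
  obtain ⟨m, h1, h2, h3⟩ := h
  let _ := Fintype.ofFinite (GaloisField 2 (2 * m + 1))
  have e : Fintype.card (GaloisField 2 (2 * m + 1)) = 2 ^ (2 * m + 1) := by
    rw [← Nat.card_eq_fintype_card, GaloisField.card 2 _ (by omega)]
  exact ⟨_, inferInstance, inferInstance, m, h1, e, h3 _ (e.trans h2.symm)⟩

theorem PS.AllD.odd (h : P.AllD) (hne : α ≠ β) : Odd (Nat.card ↥(St G α ⊓ St G β)) :=
  pt_odd_of_invol fun y a b => by_contra fun c => hne ((h y b c).uniq a.1 a.2)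

variable [IsSimpleGroup G]

theorem T2Res.iso_of_sdp (h : T2Res P) (hV : P.At α V) (hne : α ≠ β)
    (hQ : SDP Q (St G α ⊓ St G β) (St G α)) (hle : V ≤ Q) : Cfsg.Lie.IsoSuzuki G := by
  obtain ⟨s, hs, s1⟩ := P.exists_dd α
  obtain ⟨d, hd, d1⟩ := P.exists_dd β
  obtain ⟨t, t1, t2, -⟩ := hs.exists_J hd s1 d1 hne
  let S : Suz0 G := ⟨⊤, St G α, Q, St G α ⊓ St G β, t, le_top, mem_top _,
    fun e => hne (e.symm.trans t2), t1.sq, by rw [cj_St, t2], hQ, fun g _ hg => by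
      obtain ⟨k, k1, k2⟩ := h.two α β (g • α) hne.symm hg
      exact ⟨k, k1, (k * t)⁻¹ * g, by rw [mem_St, mul_smul, inv_smul_eq_iff, mul_smul, t2, k2],
        by group⟩,
    even_iff_two_dvd.2 (Dvd.dvd.trans (hV.card ▸ dvd_pow_self 2 (by have := P.pt.three; omega))
      (card_dvd_of_le hle)), h.allD.odd hne⟩
  refine (suzuki_three S rfl ?_ P.three).2.isoSuzuki
  have := Nat.le_of_dvd (card_pos _) (card_dvd_of_le (hV.elAb.le_Om1 hle))
  have := P.eight_le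
  have := hV.card
  change 2 < Nat.card (Om1 2 Q)
  omega

theorem T2Res.iso_of (h : T2Res P)
    (h4 : ∀ (α β : Ω) V V', P.At α V → P.At β V' → α ≠ β → St G α ⊓ St G β ⊓ C V ≤ C V')
    (hs : ∀ (α β : Ω) V, P.At α V → α ≠ β → C V ⊔ (St G α ⊓ St G β) = St G α) :
    Cfsg.Lie.IsoSuzuki G := by
  obtain ⟨β, hne⟩ := P.exists_ne P.α0
  obtain ⟨V, hV⟩ := P.exists_At P.α0
  generalize P.α0 = α at hne hV
  obtain ⟨V', hV'⟩ := P.exists_At β
  have nX : Nrm (St G α ⊓ St G β) (C V) := (nrm_N_C V).mono (inf_le_left.trans (h.eq_N α V hV).le)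
  by_cases h0 : St G α ⊓ St G β ⊓ C V = ⊥
  · exact h.iso_of_sdp hV hne.symm ⟨nX, by rwa [inf_comm], hs α β V hV hne.symm⟩ hV.ab
  generalize hW : St G α ⊓ St G β ⊓ C V = W at h0
  have w1 : W ≤ St G α ⊓ St G β := hW ▸ inf_le_left
  have w2 : W ≤ C V := hW ▸ inf_le_right
  have w3 : ∀ g ∈ C V, g • β = β → g ∈ W := fun g a b => hW ▸ ⟨⟨hV.C_le a, b⟩, a⟩
  have nW : Nrm (St G α ⊓ St G β) W := hW ▸ (Nrm.self _).inf nX
  have oW : Odd (Nat.card W) := (h.allD.odd hne.symm).of_dvd_nat (card_dvd_of_le w1)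
  have c1 : V ≤ C W := le_C_symm w2
  have c2 : V' ≤ C W := le_C_symm (hW ▸ h4 α β V V' hV hV' hne.symm)
  have c3 : ¬ C W ≤ St G α := fun e => hne (hV'.eq (c2.trans e)).symm
  have fx : ∀ x ∈ W, x ≠ 1 → ∀ γ : Ω, x • γ = γ → γ ∈ Orb (C W) α := fun x hx x1 γ e => by
    rcases eq_or_ne α γ with rfl | f
    · exact self_mem_Orb _ _
    obtain ⟨U, hU⟩ := P.exists_At γ
    obtain ⟨d, d1, d2⟩ := hU.exists_mem
    rw [hV.Orb_eq_of_le (P.C1_ne_top x1 e) c1 c3 (C_le_C1 hx)]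
    exact PS.DD.mem_Orb hV (c1.trans (C_le_C1 hx)) (hU.dd d1 d2)
      (mem_C1_comm.1 (C_le_C1 d1 (h4 α γ V U hV hU f ⟨⟨(w1 hx).1, e⟩, w2 hx⟩))) (hU.le d1)
  have ti : ∀ g ∈ C V, ∀ x ∈ W, x ≠ 1 → x ∈ cj g W → g ∈ N W := fun g hg x hx x1 e => by
    obtain ⟨c, hc, f⟩ := fx x hx x1 (g • β) ((cj_St g β).le (cj_mono (w1.trans inf_le_right) e))
    refine inv_mem_iff.1 (mem_N_of_conj fun y hy =>
      w3 _ (mul_mem (mul_mem (inv_mem hg) (w2 hy)) (inv_mem (inv_mem hg))) ?_)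
    have := conj_smul (f ▸ smul_of_comm (w1 hy).1 (mem_C.1 hc y hy).symm) g⁻¹
    rwa [inv_smul_smul] at this
  obtain ⟨T, t1, t2⟩ := exists_sylIn_ge c1 hV.two
  have t3 : T ≤ C V := (hV.pt.two T t2.isPGroup t1).1
  have nT : Nrm W T := nrm_of_le_C (le_C_symm t2.le)
  have nT' : Nrm T W := nrm_of_le_C t2.le
  obtain ⟨x, hx, x1⟩ := (bot_or_exists_ne_one W).resolve_left h0
  have hY : T ⊔ W = C V ⊓ N W := le_antisymm (sup_le (le_inf t3 nT'.le_N) (le_inf w2 (le_N W)))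
    fun g hg => by
      obtain ⟨t, ht, e⟩ := hV.trans_Orb (P.C_ne_top h0 (w1.trans inf_le_left)) t2 t1
        (fx x hx x1 β (w1 hx).2) hne (fx x hx x1 (g • β) (le_St_smul (w1.trans inf_le_right) hg.2 hx))
        fun e => hne (MulAction.injective g (e.trans (hV.C_le hg.1).symm))
      have := mul_mem (mem_sup_left (T := W) ht) (mem_sup_right (w3 (t⁻¹ * g)
        (mul_mem (inv_mem (t3 ht)) hg.1) (by rw [mul_smul, inv_smul_eq_iff, e])))
      rwa [mul_inv_cancel_left] at this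
  have pW : PiG {2}ᶜ W := (piG_compl_single Nat.prime_two).2 (Nat.two_dvd_ne_zero.2 (Nat.odd_iff.1 oW))
  have pT : PiG {2} T := (piG_single Nat.prime_two).2 t2.isPGroup
  have hT : Hall {2} T (T ⊔ W) := hall_sup_left pT pW (Or.inr nT)
  have n1 := normalIn_sup_left nT
  have nY : Nrm (St G α ⊓ St G β) (T ⊔ W) := hY ▸ nX.inf nW.N
  have nDT := hT.nrm_of_nrm n1.nrm nY
  obtain ⟨Q, q1, q2, q3, q4⟩ := wielandt_frob (hY.le.trans inf_le_left) n1 fun g hg e =>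
    hT.le_of_nrm inf_le_left ((piG_single Nat.prime_two).2 (isPGroup_of_odd fun y hy ho =>
      by_contra fun y1 => e (hY.ge ⟨hg, ti g hg y
        (pt_mem_of_odd t2.isPGroup nT' (sup_comm T W ▸ hy.1) ho) y1
        (mem_cj.2 (pt_mem_of_odd t2.isPGroup nT' (sup_comm T W ▸ mem_cj.1 hy.2)
          (by rw [← orderOf_conj' g⁻¹ y, inv_inv] at ho; exact ho)))⟩))) (Or.inl (n1.nrm.mono inf_le_left))
  have tq : T ≤ Q := q3.ge.trans inf_le_left
  refine h.iso_of_sdp hV hne.symm ⟨fun d hd y hy => (q1 _).2 ⟨nX d hd y (q2.le hy),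
    fun g hg e => ?_⟩, eq_bot_iff.2 fun y hy => ?_, le_antisymm
      (sup_le (q2.le.trans hV.C_le) inf_le_left) ?_⟩ (t1.trans tq)
  · have := nDT d hd _ (((q1 y).1 hy).2 _ (nX.conj' hd hg)
      (by simpa [mul_assoc] using nY.conj' hd e))
    simpa [mul_assoc] using this
  · have a := w3 y (q2.le hy.1) hy.2.2
    exact (pT.inf_eq_bot pW).le ⟨q3.le ⟨hy.1, mem_sup_right a⟩, a⟩
  · exact (hs α β V hV hne.symm).ge.trans (sup_le (q4.ge.trans (sup_le le_sup_left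
      (sup_le (tq.trans le_sup_left) (w1.trans le_sup_right)))) le_sup_right)

end CfsgSZ
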